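import Mathlib

/-!
# Two primes between `m` and `2 m`

Erdős's proof of Bertrand's postulate with one prime allowed in the interval.
-/

set_option autoImplicit false

open Nat

namespace Cfsg.Agent.NumTheory

/-- The main inequality, with one more factor. -/
theorem two_primes_inequality {m : ℕ} (hm : 2300 ≤ m) :
    m * (2 * m) ^ (Nat.sqrt (2 * m) + 1) * 4 ^ (2 * m / 3) ≤ 4 ^ m := by
  obtain ⟨s, hs⟩ : ∃ s, s = Nat.sqrt (2 * m) := ⟨_, rfl⟩
  rw [← hs]
  have hs1 : s * s ≤ 2 * m := hs ▸ Nat.sqrt_le _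
  have hs2 : 2 * m < (s + 1) * (s + 1) := hs ▸ Nat.lt_succ_sqrt _
  have hs63 : 63 ≤ s := hs ▸ Nat.le_sqrt.2 (by omega)
  obtain ⟨l, hl⟩ : ∃ l, l = Nat.log 2 (s + 1) := ⟨_, rfl⟩
  have hl1 : 2 ^ l ≤ s + 1 := hl ▸ Nat.pow_log_le_self 2 (by omega)
  have hl2 : s + 1 < 2 ^ (l + 1) := hl ▸ Nat.lt_pow_succ_log_self one_lt_two _
  have hl6 : 6 ≤ l := hl ▸ Nat.le_log_of_pow_le one_lt_two (by norm_num; omega)
  have key : ∀ j, 6 ≤ j → 6 * j + 10 ≤ 2 ^ j := by
    intro j hj
    induction j, hj using Nat.le_induction with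
    | base => norm_num
    | succ j hj ih => rw [pow_succ]; omega
  have hls := key l hl6
  have h1 : 3 * (2 * (l + 1)) * (s + 2) ≤ 2 * m := by
    have h3 : (6 * (l + 1) + 3) * s ≤ s * s := Nat.mul_le_mul_right s (by omega)
    nlinarith
  have h2 : 2 * m ≤ 2 ^ (2 * (l + 1)) := by
    rw [mul_comm 2 (l + 1), pow_mul, sq]
    have := Nat.mul_lt_mul'' hl2 hl2
    omega
  have h3 : 2 * (l + 1) * (s + 2) + 2 * (2 * m / 3) ≤ 2 * m := by
    rw [mul_assoc] at h1
    omega
  calc m * (2 * m) ^ (s + 1) * 4 ^ (2 * m / 3) ≤ (2 * m) * (2 * m) ^ (s + 1) * 4 ^ (2 * m / 3) :=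
        Nat.mul_le_mul_right _ (Nat.mul_le_mul_right _ (by omega))
    _ = (2 * m) ^ (s + 2) * 4 ^ (2 * m / 3) := by ring
    _ ≤ (2 ^ (2 * (l + 1))) ^ (s + 2) * 4 ^ (2 * m / 3) := Nat.mul_le_mul_right _ (Nat.pow_le_pow_left h2 _)
    _ = 2 ^ (2 * (l + 1) * (s + 2) + 2 * (2 * m / 3)) := by
      rw [← pow_mul, show (4 : ℕ) = 2 ^ 2 from rfl, ← pow_mul, ← pow_add]
    _ ≤ 2 ^ (2 * m) := Nat.pow_le_pow_right two_pos h3
    _ = 4 ^ m := by rw [pow_mul]; rfl

/-- The central binomial coefficient when at most one prime lies in the interval. -/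
theorem centralBinom_le_of_one_prime (m : ℕ) (hm : 2 < m) (p₀ : ℕ) (h₀ : p₀ ≤ 2 * m)
    (h : ∀ p : ℕ, p.Prime → m < p → p ≤ 2 * m → p = p₀) (h₀m : m < p₀) :
    centralBinom m ≤ (2 * m) ^ (Nat.sqrt (2 * m) + 1) * 4 ^ (2 * m / 3) := by
  classical
  set S := Finset.range (2 * m / 3 + 1)
  let f := fun p => p ^ (centralBinom m).factorization p
  have hp₀ : p₀ ∉ S := by simp only [S, Finset.mem_range, not_lt]; omega
  have hsub : ∏ p ∈ insert p₀ S, f p = centralBinom m := by
    refine Eq.trans ?_ m.prod_pow_factorization_centralBinom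
    refine Finset.prod_subset ?_ ?_
    · intro x hx
      simp only [S, Finset.mem_insert, Finset.mem_range] at hx ⊢
      omega
    intro x hx hx'
    simp only [S, Finset.mem_insert, Finset.mem_range, not_or, not_lt] at hx hx'
    by_cases hxp : x.Prime
    · have hle : x ≤ m := by
        by_contra hgt
        exact hx'.1 (h x hxp (by omega) (by omega))
      simp only [f]
      rw [factorization_centralBinom_of_two_mul_self_lt_three_mul hm hle (by omega), Nat.pow_zero]
    · simp only [f]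
      rw [factorization_eq_zero_of_not_prime m.centralBinom hxp, Nat.pow_zero]
  rw [← hsub, Finset.prod_insert hp₀, pow_succ', mul_assoc]
  have hle2 : ∀ p, f p ≤ 2 * m := fun p => pow_factorization_choose_le (by omega)
  refine Nat.mul_le_mul (hle2 p₀) ?_
  rw [← Finset.prod_filter_of_ne (p := Nat.Prime) (fun p _ hne => by
    by_contra hnp
    exact hne (by simp only [f]; rw [factorization_eq_zero_of_not_prime m.centralBinom hnp, Nat.pow_zero])),
    ← Finset.prod_filter_mul_prod_filter_not (S.filter Nat.Prime) (· ≤ Nat.sqrt (2 * m))]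
  apply Nat.mul_le_mul
  · refine (Finset.prod_le_prod' fun p _ => hle2 p).trans ?_
    rw [Finset.prod_const]
    refine Nat.pow_le_pow_right (by omega) ?_
    refine (Finset.card_le_card (t := Finset.Icc 1 (Nat.sqrt (2 * m))) fun x hx => ?_).trans (by simp)
    simp only [Finset.mem_filter] at hx
    exact Finset.mem_Icc.mpr ⟨hx.1.2.one_lt.le, hx.2⟩
  · refine le_trans ?_ (primorial_le_four_pow (2 * m / 3))
    refine (Finset.prod_le_prod' fun p hp => (?_ : f p ≤ p)).trans ?_
    · simp only [Finset.mem_filter] at hp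
      refine (Nat.pow_le_pow_right hp.1.2.pos ?_).trans (pow_one p).le
      exact Nat.factorization_choose_le_one (Nat.sqrt_lt'.mp (not_le.1 hp.2))
    refine Finset.prod_le_prod_of_subset_of_one_le' (Finset.filter_subset _ _) ?_
    exact fun p hp _ => (Finset.mem_filter.1 hp).2.one_lt.le

/-- There are two primes in `(m, 2 m]` for `6 ≤ m`. -/
theorem exists_two_primes {m : ℕ} (hm : 6 ≤ m) :
    ∃ p q : ℕ, p.Prime ∧ q.Prime ∧ p < q ∧ m < p ∧ q ≤ 2 * m := by
  rcases Nat.lt_or_ge m 2441 with hs | hl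
  · have key : ∀ lo p q, p.Prime → q.Prime → p < q → q ≤ 2 * lo → (m < lo → ∃ p q : ℕ, p.Prime ∧ q.Prime ∧ p < q ∧ m < p ∧ q ≤ 2 * m) →
        m < p → ∃ p q : ℕ, p.Prime ∧ q.Prime ∧ p < q ∧ m < p ∧ q ≤ 2 * m := by
      intro lo p q hp hq hpq hqlo hrec hmp
      rcases Nat.lt_or_ge m lo with h | h
      · exact hrec h
      · exact ⟨p, q, hp, hq, hpq, hmp, by omega⟩
    refine key 1229 2441 2447 (by norm_num) (by norm_num) (by norm_num) (by norm_num) ?_ hs
    refine key 617 1229 1231 (by norm_num) (by norm_num) (by norm_num) (by norm_num) ?_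
    refine key 311 617 619 (by norm_num) (by norm_num) (by norm_num) (by norm_num) ?_
    refine key 157 311 313 (by norm_num) (by norm_num) (by norm_num) (by norm_num) ?_
    refine key 83 157 163 (by norm_num) (by norm_num) (by norm_num) (by norm_num) ?_
    refine key 47 83 89 (by norm_num) (by norm_num) (by norm_num) (by norm_num) ?_
    refine key 29 47 53 (by norm_num) (by norm_num) (by norm_num) (by norm_num) ?_
    refine key 17 29 31 (by norm_num) (by norm_num) (by norm_num) (by norm_num) ?_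
    refine key 11 17 19 (by norm_num) (by norm_num) (by norm_num) (by norm_num) ?_
    refine key 7 11 13 (by norm_num) (by norm_num) (by norm_num) (by norm_num) ?_
    refine key 6 7 11 (by norm_num) (by norm_num) (by norm_num) (by norm_num) ?_
    intro h; omega
  · obtain ⟨p₀, hp₀, hm₀, h₀⟩ := Nat.exists_prime_lt_and_le_two_mul m (by omega)
    by_contra hcon
    push Not at hcon
    have h : ∀ p : ℕ, p.Prime → m < p → p ≤ 2 * m → p = p₀ := by
      intro p hp hmp hp2
      rcases lt_trichotomy p p₀ with h | h | h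
      · have := hcon p p₀ hp hp₀ h hmp; omega
      · exact h
      · have := hcon p₀ p hp₀ hp h hm₀; omega
    have h1 := centralBinom_le_of_one_prime m (by omega) p₀ h₀ h hm₀
    have h2 := Nat.four_pow_lt_mul_centralBinom m (by omega)
    have h3 := two_primes_inequality (show 2300 ≤ m by omega)
    have h4 := Nat.mul_le_mul_left m h1
    rw [← mul_assoc] at h4
    omega

/-- There are two primes in `(n / 2, n]` for `11 ≤ n`. -/
theorem exists_two_large_primes {n : ℕ} (hn : 11 ≤ n) :
    ∃ p q : ℕ, p.Prime ∧ q.Prime ∧ p < q ∧ n < 2 * p ∧ q ≤ n := by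
  rcases Nat.lt_or_ge n 12 with h | h
  · exact ⟨7, 11, by norm_num, by norm_num, by norm_num, by omega, hn⟩
  · obtain ⟨p, q, hp, hq, hpq, hmp, hq2⟩ := exists_two_primes (show 6 ≤ n / 2 by omega)
    exact ⟨p, q, hp, hq, hpq, by omega, by omega⟩

end Cfsg.Agent.NumTheory
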